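import Cfsg.Agent.H347.KGL.Field
import Cfsg.Agent.H347.KGL.Mat
import Cfsg.Agent.H510.ClassCount
import Cfsg.Agent.H717.SmallClass
import Cfsg.Agent.S2119

/-!
# Project KGL, task 1865 (helper347): `M / A ≅ A₅` and `|W| = q ^ 2`

`row_a5`.
-/

set_option autoImplicit false
set_option linter.unusedSectionVars false

namespace Cfsg.Agent.H347.KGL

open Cfsg.Agent.H475.KGL Subgroup
open scoped commutatorElement

universe u v w

theorem kc_congr {G : Type*} {K : Type*} [Group G] [Group K] (f : G ≃* K) : kc G = kc K := by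
  refine Nat.card_congr ⟨ConjClasses.map f.toMonoidHom, ConjClasses.map f.symm.toMonoidHom, ?_, ?_⟩
  · intro x
    obtain ⟨g, rfl⟩ := ConjClasses.mk_surjective x
    change ConjClasses.mk (f.symm (f g)) = _
    rw [f.symm_apply_apply]
  · intro x
    obtain ⟨g, rfl⟩ := ConjClasses.mk_surjective x
    change ConjClasses.mk (f (f.symm g)) = _
    rw [f.apply_symm_apply]

theorem kc_of_subsingleton (G : Type*) [Group G] [Subsingleton G] : kc G = 1 := by
  have : Subsingleton (ConjClasses G) := ⟨fun x y => by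
    obtain ⟨g, rfl⟩ := ConjClasses.mk_surjective x
    obtain ⟨g', rfl⟩ := ConjClasses.mk_surjective y
    rw [Subsingleton.elim g g']⟩
  exact Nat.card_eq_one_iff_unique.2 ⟨this, ⟨ConjClasses.mk 1⟩⟩

section perf

variable {p e : ℕ} [Fact p.Prime] {H : Type u} [Group H] {A M C : Subgroup H} {W : Type v}
  [AddCommGroup W] [Module (ZMod p) W] [Finite W] {ρ : C →* (W ≃ₗ[ZMod p] W)}

/-- `c m c⁻¹` as an element of `M` -/
def cj (hM : M.Normal) (c : H) (m : M) : M := ⟨c * m * c⁻¹, hM.conj_mem m m.2 c⟩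

theorem cj_mul (hM : M.Normal) (c d : H) (m : M) : cj hM (c * d) m = cj hM c (cj hM d m) :=
  Subtype.ext (by simp [cj, mul_assoc])

theorem cj_map_mul (hM : M.Normal) (c : H) (m n : M) : cj hM c (m * n) = cj hM c m * cj hM c n :=
  Subtype.ext (by simp [cj, mul_assoc])

omit [Finite W] in
/-- an element of `C` which acts trivially on `M / A`, perfect, commutes with `M` -/
theorem comm_of (h : BSit p e A M C ρ) {T : Type w} [Group T] (hT : commutator T = ⊤) (φ : M →* T)
    (hφ : Function.Surjective φ) (hk : ∀ x : M, φ x = 1 ↔ (x : H) ∈ A) {c : H} (hc : c ∈ C)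
    (hcm : ∀ m : M, φ (cj h.nM c m) = φ m) (m : H) (hm : m ∈ M) : c * m = m * c := by
  let F : M →* H :=
    { toFun := fun m => c * m * c⁻¹ * (m : H)⁻¹
      map_one' := by simp
      map_mul' := by
        intro x y
        have h1 : c * y * c⁻¹ * (y : H)⁻¹ ∈ A := by
          have h2 : φ (cj h.nM c y * y⁻¹) = 1 := by rw [map_mul, hcm, map_inv, mul_inv_cancel]
          exact (hk _).1 h2
        have h3 := h.com _ h1 x x.2
        rw [Subgroup.coe_mul]
        calc c * (x * y) * c⁻¹ * ((x : H) * y)⁻¹ = c * x * c⁻¹ * ((c * y * c⁻¹ * (y : H)⁻¹) * (x : H)⁻¹) := by group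
          _ = c * x * c⁻¹ * ((x : H)⁻¹ * (c * y * c⁻¹ * (y : H)⁻¹)) := by
            congr 1
            have h4 := congrArg (fun z => (x : H)⁻¹ * z * (x : H)⁻¹) h3
            simp only [mul_assoc, inv_mul_cancel_left] at h4
            simp only [mul_assoc, mul_inv_cancel, mul_one] at h4 ⊢
            exact h4.symm
          _ = _ := by group }
  have hF : ∀ x : M, F x = c * x * c⁻¹ * (x : H)⁻¹ := fun _ => rfl
  have hFA : ∀ x : M, F x ∈ A := by
    intro x
    have h2 : φ (cj h.nM c x * x⁻¹) = 1 := by rw [map_mul, hcm, map_inv, mul_inv_cancel]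
    exact (hk _).1 h2
  have h1 : commutator M ≤ F.ker := by
    rw [commutator_def, Subgroup.commutator_le]
    intro a _ b _
    rw [MonoidHom.mem_ker, map_commutatorElement, commutatorElement_eq_one_iff_mul_comm]
    exact h.com _ (hFA a) _ (h.lt.le (hFA b))
  have h2 : ∀ a : M, (a : H) ∈ A → F a = 1 := by
    intro a ha
    rw [hF, ← a_comm h ha hc, mul_inv_cancel_right, mul_inv_cancel]
  have h3 : F ⟨m, hm⟩ = 1 := by
    have h4 : φ ⟨m, hm⟩ ∈ (commutator M).map φ := by
      have h5 : (commutator M).map φ = commutator T := by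
        rw [commutator_def, Subgroup.map_commutator, ← MonoidHom.range_eq_map, MonoidHom.range_eq_top.2 hφ,
          ← commutator_def]
      rw [h5, hT]
      exact Subgroup.mem_top _
    obtain ⟨m', hm', h5⟩ := h4
    have h6 : ((⟨m, hm⟩ * m'⁻¹ : M) : H) ∈ A := (hk _).1 (by rw [map_mul, map_inv, h5, mul_inv_cancel])
    have h7 : F (⟨m, hm⟩ * m'⁻¹) = 1 := h2 _ h6
    rw [map_mul, map_inv, MonoidHom.mem_ker.1 (h1 hm'), inv_one, mul_one] at h7
    exact h7
  rw [hF, mul_inv_eq_one, mul_inv_eq_iff_eq_mul] at h3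
  exact h3

omit [Finite W] in
/-- the automorphism of `M / A` induced by an element of `C` -/
theorem exists_aut (h : BSit p e A M C ρ) {T : Type w} [Group T] [Finite T] (φ : M →* T)
    (hφ : Function.Surjective φ) (hk : ∀ x : M, φ x = 1 ↔ (x : H) ∈ A) (c : H) :
    ∃ α : MulAut T, ∀ m : M, α (φ m) = φ (cj h.nM c m) := by
  let f : M →* T :=
    { toFun := fun m => φ (cj h.nM c m)
      map_one' := by
        have : cj h.nM c 1 = 1 := Subtype.ext (by simp [cj])
        rw [this, map_one]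
      map_mul' := fun x y => by rw [cj_map_mul, map_mul] }
  have hf : φ.ker ≤ f.ker := by
    intro x hx
    rw [MonoidHom.mem_ker] at hx ⊢
    exact (hk _).2 (h.nA.conj_mem _ ((hk x).1 hx) c)
  let α0 : T →* T := (MonoidHom.liftOfSurjective φ hφ) ⟨f, hf⟩
  have hα0 : ∀ m, α0 (φ m) = f m := fun m => MonoidHom.liftOfRightInverse_comp_apply φ _ _ ⟨f, hf⟩ m
  have hs : Function.Surjective α0 := by
    intro y
    obtain ⟨m, rfl⟩ := hφ y
    refine ⟨φ (cj h.nM c⁻¹ m), ?_⟩
    rw [hα0]
    change φ (cj h.nM c (cj h.nM c⁻¹ m)) = φ m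
    rw [← cj_mul, mul_inv_cancel]
    congr 1
    exact Subtype.ext (by simp [cj])
  exact ⟨MulEquiv.ofBijective α0 (Finite.injective_iff_bijective.1 (Finite.injective_iff_surjective.2 hs)),
    fun m => hα0 m⟩

end perf

/-! ### `A₅` -/

open Equiv

theorem aut_five (α : MulAut (alternatingGroup (Fin 5))) :
    ∃ τ : Perm (Fin 5), ∀ x : alternatingGroup (Fin 5), (α x : Perm (Fin 5)) = τ * x * τ⁻¹ :=
  S2119.exists_conj_of (m := 3) (by norm_num) α
    (fun _ hi => S2119.isThreeCycle_map_small (by omega) α (StandardComponent.AltAut.isThreeCycle_cyc hi))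

/-- `i ↦ i + 1` -/
def x0 : alternatingGroup (Fin 5) := ⟨⟨![1, 2, 3, 4, 0], ![4, 0, 1, 2, 3], by decide, by decide⟩,
  Perm.mem_alternatingGroup.2 (by decide)⟩

/-- `i ↦ 2 i` -/
def s0 : Perm (Fin 5) := ⟨![0, 2, 4, 1, 3], ![0, 3, 1, 4, 2], by decide, by decide⟩

theorem s0_conj : s0 * x0 * s0⁻¹ = (x0 : Perm (Fin 5)) ^ 2 := by decide

theorem sign_s0 : Perm.sign s0 = -1 := by decide

theorem x0_pow : x0 ^ 5 = 1 := by decide

theorem x0_not_comm : ∃ y : alternatingGroup (Fin 5), x0 * y ≠ y * x0 :=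
  ⟨⟨⟨![1, 2, 0, 3, 4], ![2, 0, 1, 3, 4], by decide, by decide⟩, Perm.mem_alternatingGroup.2 (by decide)⟩, by decide⟩

theorem simple_five : IsSimpleGroup (alternatingGroup (Fin 5)) :=
  alternatingGroup.isSimpleGroup (by rw [Nat.card_eq_fintype_card, Fintype.card_fin])

theorem center_five {x : alternatingGroup (Fin 5)} (h : ∀ y : alternatingGroup (Fin 5), x * y = y * x) : x = 1 := by
  have h1 : x ∈ center (alternatingGroup (Fin 5)) := Subgroup.mem_center_iff.2 fun y => (h y).symm
  have h2 : center (alternatingGroup (Fin 5)) = ⊥ := by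
    have := simple_five
    rcases IsSimpleGroup.eq_bot_or_eq_top_of_normal (center (alternatingGroup (Fin 5))) inferInstance with h | h
    · exact h
    · exfalso
      obtain ⟨y, hy⟩ := x0_not_comm
      have h3 : x0 ∈ center (alternatingGroup (Fin 5)) := by rw [h]; trivial
      exact hy (Subgroup.mem_center_iff.1 h3 y).symm
  rw [h2] at h1
  exact Subgroup.mem_bot.1 h1

theorem perfect_five : commutator (alternatingGroup (Fin 5)) = ⊤ := by
  have := simple_five
  rcases IsSimpleGroup.eq_bot_or_eq_top_of_normal (commutator (alternatingGroup (Fin 5))) inferInstance with h | h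
  · exfalso
    obtain ⟨y, hy⟩ := x0_not_comm
    apply hy
    have h1 : ⁅x0, y⁆ ∈ commutator (alternatingGroup (Fin 5)) :=
      Subgroup.commutator_mem_commutator (Subgroup.mem_top _) (Subgroup.mem_top _)
    rw [h, Subgroup.mem_bot, commutatorElement_eq_one_iff_mul_comm] at h1
    exact h1
  · exact h

section row

variable {p e : ℕ} [Fact p.Prime] {H : Type u} [Group H] [Finite H] {A M C : Subgroup H} {W : Type v}
  [AddCommGroup W] [Module (ZMod p) W] [Finite W] {ρ : C →* (W ≃ₗ[ZMod p] W)}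

/-- every element of `C` induces an inner automorphism -/
theorem exists_inner (h : BSit p e A M C ρ) (φ : M →* alternatingGroup (Fin 5)) (hφ : Function.Surjective φ)
    (hk : ∀ x : M, φ x = 1 ↔ (x : H) ∈ A) (hW : Nat.card W = (p ^ e) ^ 2) (h5 : p ≠ 5) {c : H} (hc : c ∈ C) :
    ∃ y : alternatingGroup (Fin 5), ∀ m : M, φ (cj h.nM c m) = y * φ m * y⁻¹ := by
  obtain ⟨α, hα⟩ := exists_aut h φ hφ hk c
  obtain ⟨τ, hτ⟩ := aut_five α
  rcases Int.units_eq_one_or (Perm.sign τ) with hs | hs
  · refine ⟨⟨τ, Perm.mem_alternatingGroup.2 hs⟩, fun m => ?_⟩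
    rw [← hα]
    exact Subtype.ext (hτ _)
  · exfalso
    have hs' : Perm.sign (s0⁻¹ * τ) = 1 := by rw [map_mul, map_inv, sign_s0, hs]; decide
    obtain ⟨m1, hm1⟩ := hφ ⟨s0⁻¹ * τ, Perm.mem_alternatingGroup.2 hs'⟩
    obtain ⟨X, hX⟩ := hφ x0
    have hgC : c * (m1 : H)⁻¹ ∈ C := mul_mem hc (inv_mem (h.le m1.2))
    have hg : φ (cj h.nM (c * (m1 : H)⁻¹) X) = x0 ^ 2 := by
      rw [cj_mul, ← hα]
      have h1 : cj h.nM (m1 : H)⁻¹ X = m1⁻¹ * X * m1 := Subtype.ext (by simp [cj])
      rw [h1, map_mul φ, map_mul φ, map_inv φ, hm1, hX]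
      apply Subtype.ext
      rw [hτ]
      push_cast
      rw [← s0_conj]
      group
    obtain ⟨E, _, n, σ, hch, hE, hWn, hσ, hsc⟩ := exists_gl h
    have hp : p.Prime := Fact.out
    have he := one_le_e h
    have hq : 2 ≤ p ^ e := hp.two_le.trans (Nat.le_self_pow (by omega) p)
    have hn : n = 2 := by
      rw [hW] at hWn
      exact (Nat.pow_right_injective hq hWn).symm
    subst hn
    -- the elements
    let x : C := ⟨X, h.le X.2⟩
    let g : C := ⟨c * (m1 : H)⁻¹, hgC⟩
    have ha : (c * (m1 : H)⁻¹) * X * (c * (m1 : H)⁻¹)⁻¹ * ((X : H) ^ 2)⁻¹ ∈ A := by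
      have h1 : φ (cj h.nM (c * (m1 : H)⁻¹) X * (X ^ 2)⁻¹) = 1 := by
        rw [map_mul, map_inv, map_pow, hg, hX, mul_inv_cancel]
      exact (hk _).1 h1
    let a : C := ⟨_, h.le (h.lt.le ha)⟩
    have hga : g * x * g⁻¹ = a * x ^ 2 := Subtype.ext (by simp [g, x, a])
    obtain ⟨s, hs1⟩ := hsc a (fun m hm => h.com _ ha m hm)
    have hb : (X : H) ^ 5 ∈ A := by
      have h1 : φ (X ^ 5) = 1 := by rw [map_pow, hX, x0_pow]
      exact (hk _).1 h1
    obtain ⟨t, ht⟩ := hsc (x ^ 5) (fun m hm => h.com _ hb m hm)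
    have hx5 : (σ x : Matrix (Fin 2) (Fin 2) E) ^ 5 = t • 1 := by
      rw [← ht, map_pow]; rfl
    have hns : ∀ c : E, (σ x : Matrix (Fin 2) (Fin 2) E) ≠ c • 1 := by
      intro k hkx
      obtain ⟨y, hy⟩ := x0_not_comm
      obtain ⟨Y, hY⟩ := hφ y
      apply hy
      rw [← hX, ← hY, ← map_mul, ← map_mul]
      congr 1
      have h1 : x * ⟨Y, h.le Y.2⟩ = ⟨Y, h.le Y.2⟩ * x := by
        apply hσ
        apply Units.ext
        rw [map_mul, map_mul]
        change (σ x : Matrix (Fin 2) (Fin 2) E) * _ = _ * (σ x : Matrix (Fin 2) (Fin 2) E)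
        rw [hkx, smul_mul_assoc, mul_smul_comm, one_mul, mul_one]
      exact Subtype.ext (congrArg (fun z : C => (z : H)) h1)
    have hdet : (σ x : Matrix (Fin 2) (Fin 2) E).det ≠ 0 := by
      have h1 := (Matrix.isUnit_iff_isUnit_det (σ x : Matrix (Fin 2) (Fin 2) E)).1 (σ x).isUnit
      exact h1.ne_zero
    have hconj : (σ g : Matrix (Fin 2) (Fin 2) E) * σ x * (σ g⁻¹ : Matrix.GeneralLinearGroup (Fin 2) E) =
        s • (σ x : Matrix (Fin 2) (Fin 2) E) ^ 2 := by
      have h1 : σ g * σ x * σ g⁻¹ = σ a * (σ x) ^ 2 := by rw [← map_mul, ← map_mul, hga, map_mul, map_pow]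
      have h2 := congrArg (fun z : Matrix.GeneralLinearGroup (Fin 2) E => (z : Matrix (Fin 2) (Fin 2) E)) h1
      simp only [Units.val_mul, Units.val_pow_eq_pow_val] at h2
      rw [h2, hs1, smul_mul_assoc, one_mul]
    have hinv : (σ g : Matrix (Fin 2) (Fin 2) E) * (σ g⁻¹ : Matrix.GeneralLinearGroup (Fin 2) E) = 1 := by
      rw [← Units.val_mul, ← map_mul, mul_inv_cancel, map_one, Units.val_one]
    have h0 := no_sq _ _ _ hinv hx5 hns hdet hconj
    have h1 : ((5 : ℕ) : E) = 0 := by exact_mod_cast h0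
    rw [CharP.cast_eq_zero_iff E p] at h1
    exact h5 ((Nat.prime_dvd_prime_iff_eq hp Nat.prime_five).1 h1)

/-- the map `C → A₅` -/
theorem exists_psi (h : BSit p e A M C ρ) (φ : M →* alternatingGroup (Fin 5)) (hφ : Function.Surjective φ)
    (hk : ∀ x : M, φ x = 1 ↔ (x : H) ∈ A) (hW : Nat.card W = (p ^ e) ^ 2) (h5 : p ≠ 5) :
    ∃ ψ : C →* alternatingGroup (Fin 5), Function.Surjective ψ ∧ ∀ c : C, ψ c = 1 → ∀ m ∈ M, (c : H) * m = m * c := by
  choose y hy using fun c : C => exists_inner h φ hφ hk hW h5 c.2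
  have huniq : ∀ y y' : alternatingGroup (Fin 5), (∀ m : M, y * φ m * y⁻¹ = y' * φ m * y'⁻¹) → y = y' := by
    intro y y' hyy
    have h1 : y'⁻¹ * y = 1 := by
      apply center_five
      intro z
      obtain ⟨m, rfl⟩ := hφ z
      have h2 := hyy m
      rw [mul_inv_eq_iff_eq_mul] at h2
      rw [mul_assoc, h2]
      group
    exact (inv_mul_eq_one.1 h1).symm
  let ψ : C →* alternatingGroup (Fin 5) :=
    { toFun := y
      map_one' := by
        apply huniq
        intro m
        rw [← hy]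
        have : cj h.nM ((1 : C) : H) m = m := Subtype.ext (by simp [cj])
        rw [this]
        simp
      map_mul' := by
        intro a b
        apply huniq
        intro m
        rw [← hy, Subgroup.coe_mul, cj_mul, hy, hy]
        group }
  refine ⟨ψ, ?_, ?_⟩
  · intro z
    obtain ⟨m, rfl⟩ := hφ z
    refine ⟨⟨m, h.le m.2⟩, ?_⟩
    apply huniq
    intro m'
    change y _ * φ m' * (y _)⁻¹ = _
    rw [← hy]
    change φ (cj h.nM (m : H) m') = _
    have : cj h.nM (m : H) m' = m * m' * m⁻¹ := Subtype.ext (by simp [cj])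
    rw [this, map_mul, map_mul, map_inv]
  · intro c hc m hm
    refine comm_of h perfect_five φ hφ hk c.2 (fun m => ?_) m hm
    rw [hy]
    have : y c = 1 := hc
    rw [this]
    simp

/-- **`M / A ≅ A₅` in dimension two.** -/
theorem row_a5 (h : BSit p e A M C ρ) (φ : M →* alternatingGroup (Fin 5)) (hφ : Function.Surjective φ)
    (hk : ∀ x : M, φ x = 1 ↔ (x : H) ∈ A) (hW : Nat.card W = (p ^ e) ^ 2) : BGood e C W := by
  classical
  have hp : p.Prime := Fact.out
  have he := one_le_e h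
  have h60 : 60 ∣ Nat.card C := by
    have h1 : Nat.card (alternatingGroup (Fin 5)) ∣ Nat.card M := Subgroup.card_dvd_of_surjective φ hφ
    have h2 : Nat.card (alternatingGroup (Fin 5)) = 60 := by
      rw [nat_card_alternatingGroup, Nat.card_eq_fintype_card, Fintype.card_fin]; rfl
    rw [h2] at h1
    exact h1.trans (Subgroup.card_dvd_of_le h.le)
  have hpC : ¬ p ∣ 60 := fun h1 => h.cop ((h1.trans h60).trans (Subgroup.card_subgroup_dvd_card C))
  have hp7 : 7 ≤ p := by
    by_contra hcon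
    have hp2 := hp.two_le
    interval_cases p
    · exact hpC (by norm_num)
    · exact hpC (by norm_num)
    · exact absurd hp (by norm_num)
    · exact hpC (by norm_num)
    · exact hpC (by norm_num)
  -- `10 e ≤ q`
  have hq : 10 * e ≤ p ^ e := by
    by_cases h1 : 11 ≤ p
    · have h2 : ∀ k : ℕ, 10 * k ≤ 11 ^ k := by
        intro k
        induction k with
        | zero => norm_num
        | succ k ih =>
          have : 1 ≤ 11 ^ k := Nat.one_le_pow _ _ (by norm_num)
          rw [pow_succ]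
          omega
      exact (h2 e).trans (Nat.pow_le_pow_left h1 e)
    · have hp' : p = 7 := by
        interval_cases p
        · rfl
        · exact absurd hp (by norm_num)
        · exact absurd hp (by norm_num)
        · exact absurd hp (by norm_num)
      subst hp'
      by_cases he1 : e = 1
      · exfalso
        subst he1
        obtain ⟨E, _, n, σ, hch, hE, hWn, hσ, hsc⟩ := exists_gl h
        have hn : n = 2 := by
          rw [hW] at hWn
          exact (Nat.pow_right_injective (by norm_num : 2 ≤ 7 ^ 1) hWn).symm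
        subst hn
        have hfE : Finite E := Nat.finite_of_card_ne_zero (by rw [hE]; norm_num)
        have := Fintype.ofFinite E
        have h3 : Nat.card C ∣ Nat.card (Matrix.GeneralLinearGroup (Fin 2) E) := Subgroup.card_dvd_of_injective σ hσ
        have h4 := Matrix.card_GL_field (𝔽 := E) 2
        rw [← Nat.card_eq_fintype_card, hE] at h4
        rw [h4] at h3
        have h5 := h60.trans h3
        revert h5
        simp only [Fin.prod_univ_two]
        decide
      · have h2 : ∀ k : ℕ, 10 * (k + 2) ≤ 7 ^ (k + 2) := by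
          intro k
          induction k with
          | zero => norm_num
          | succ k ih =>
            have : 1 ≤ 7 ^ (k + 2) := Nat.one_le_pow _ _ (by norm_num)
            rw [show k + 1 + 2 = (k + 2) + 1 by ring, pow_succ]
            omega
        obtain ⟨k, rfl⟩ : ∃ k, e = k + 2 := ⟨e - 2, by omega⟩
        exact h2 k
  obtain ⟨ψ, hψ, hψk⟩ := exists_psi h φ hφ hk hW (by omega)
  intro N hN hNC
  let N' : Subgroup C := N.subgroupOf C
  have hN' : N'.IsSubnormal := hN.subgroupOf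
  have e1 : kc N = kc N' := kc_congr (Subgroup.subgroupOfEquivOfLe hNC).symm
  let ψ' : N' →* alternatingGroup (Fin 5) := ψ.comp N'.subtype
  have h1 : kc N' ≤ Nat.card ψ'.ker * kc (N' ⧸ ψ'.ker) := H510.ClassCount.card_conjClasses_le_mul ψ'.ker
  have h2 : kc (N' ⧸ ψ'.ker) = kc ψ'.range := kc_congr (QuotientGroup.quotientKerEquivRange ψ')
  have h3 : ψ'.range = N'.map ψ := by
    rw [MonoidHom.range_comp, Subgroup.range_subtype]
  have h4 : kc ψ'.range ≤ 5 := by
    have := simple_five
    rw [h3]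
    rcases (hN'.map hψ).eq_bot_or_top_of_isSimpleGroup inferInstance with h5 | h5
    · rw [h5, kc_of_subsingleton]; norm_num
    · rw [h5, kc_congr Subgroup.topEquiv]
      exact H717.SmallClass.conj_alt_five.le
  have h5 : Nat.card ψ'.ker ≤ p ^ e - 1 := by
    have h6 : Nat.card (ψ'.ker.map N'.subtype) = Nat.card ψ'.ker :=
      Nat.card_congr (ψ'.ker.equivMapOfInjective _ N'.subtype_injective).symm.toEquiv
    rw [← h6]
    apply card_le h
    rintro z ⟨y, hy, rfl⟩
    exact hψk _ hy
  have h6 : kc N ≤ 5 * (p ^ e - 1) := by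
    rw [e1]
    calc kc N' ≤ Nat.card ψ'.ker * kc (N' ⧸ ψ'.ker) := h1
      _ ≤ (p ^ e - 1) * 5 := Nat.mul_le_mul h5 (by rw [h2]; exact h4)
      _ = _ := mul_comm _ _
  rw [hW]
  calc 2 * e * kc N ≤ 2 * e * (5 * (p ^ e - 1)) := Nat.mul_le_mul_left _ h6
    _ = (10 * e) * (p ^ e - 1) := by ring
    _ ≤ p ^ e * p ^ e := Nat.mul_le_mul hq (Nat.sub_le _ _)
    _ = _ := by ring

end row

end Cfsg.Agent.H347.KGL
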